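import Mathlib
import Cfsg.Agent.Lib.Slopes

/-! Burnside: transitive groups of prime degree are solvable or doubly transitive
(Schur multipliers and Rédei's slope theorem). -/

set_option linter.style.haveILetI false

namespace CfsgLib.Perm.BurnsidePrime

variable {p : ℕ} [Fact p.Prime]

/-- the difference set `E` is invariant under `G` -/
def Inv (G : Subgroup (Equiv.Perm (ZMod p))) (E : Finset (ZMod p)) : Prop :=
  ∀ g ∈ G, ∀ x y, y - x ∈ E → g y - g x ∈ E

theorem Inv.iff {G : Subgroup (Equiv.Perm (ZMod p))} {E : Finset (ZMod p)} (h : Inv G E)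
    {g : Equiv.Perm (ZMod p)} (hg : g ∈ G) (x y : ZMod p) : g y - g x ∈ E ↔ y - x ∈ E := by
  refine ⟨fun h' => ?_, h g hg x y⟩
  have := h g⁻¹ (G.inv_mem hg) (g x) (g y) h'
  simpa using this

/-- Schur: prime multipliers preserve invariance -/
theorem Inv.mul_prime {G : Subgroup (Equiv.Perm (ZMod p))} {E : Finset (ZMod p)} (h : Inv G E)
    {q : ℕ} (hq : q.Prime) (hqp : q ≠ p) : Inv G (E.image fun e => (q : ZMod p) * e) := by
  classical
  haveI : Fact q.Prime := ⟨hq⟩
  let A : AddMonoidAlgebra (ZMod q) (ZMod p) := ∑ e ∈ E, AddMonoidAlgebra.single e 1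
  have hmul : ∀ (f : AddMonoidAlgebra (ZMod q) (ZMod p)) (z : ZMod p),
      (A * f).coeff z = ∑ e ∈ E, f.coeff (z - e) := by
    intro f z
    rw [Finset.sum_mul, AddMonoidAlgebra.coeff_sum, Finsupp.finset_sum_apply]
    refine Finset.sum_congr rfl fun e _ => ?_
    rw [AddMonoidAlgebra.coeff_single_mul_eq_mul_coeff (m₂ := z - e) (H := fun d _ => ⟨fun he => by rw [← he]; ring, fun he => by rw [he]; ring⟩),
      one_mul]
  have hinv : ∀ (k : ℕ), ∀ g ∈ G, ∀ x y, (A ^ k).coeff (g y - g x) = (A ^ k).coeff (y - x) := by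
    intro k
    induction k with
    | zero =>
      intro g hg x y
      rw [pow_zero, AddMonoidAlgebra.one_def, AddMonoidAlgebra.coeff_single, Finsupp.single_apply, Finsupp.single_apply]
      refine if_congr ?_ rfl rfl
      rw [eq_comm, sub_eq_zero, g.injective.eq_iff, eq_comm (a := (0 : ZMod p)), sub_eq_zero]
    | succ k ih =>
      intro g hg x y
      rw [pow_succ', hmul, hmul]
      have e1 : ∀ x y : ZMod p, ∑ e ∈ E, (A ^ k).coeff (y - x - e) =
          ∑ z, if z - x ∈ E then (A ^ k).coeff (y - z) else 0 := by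
        intro x y
        rw [← Finset.sum_filter]
        refine Finset.sum_nbij' (fun e => x + e) (fun z => z - x) ?_ ?_ ?_ ?_ ?_
        · intro e he; simp [he]
        · intro z hz; simpa using hz
        · intro e _; simp
        · intro z _; simp
        · intro e _; rw [sub_sub]
      rw [e1, e1]
      refine (Fintype.sum_equiv g _ _ fun z => ?_).symm
      rw [ih g hg z y]
      exact if_congr (h.iff hg x z).symm rfl rfl
  have hq0 : (q : ZMod p) ≠ 0 := by
    rw [ne_eq, ZMod.natCast_eq_zero_iff]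
    exact fun hd => hqp ((Nat.prime_dvd_prime_iff_eq Fact.out hq).1 hd).symm
  have hmem : ∀ z, z ∈ E.image (fun e => (q : ZMod p) * e) ↔ (A ^ q).coeff z ≠ 0 := by
    intro z
    haveI : CharP (AddMonoidAlgebra (ZMod q) (ZMod p)) q :=
      charP_of_injective_algebraMap (FaithfulSMul.algebraMap_injective (ZMod q) _) q
    rw [sum_pow_char q, AddMonoidAlgebra.coeff_sum, Finsupp.finset_sum_apply]
    simp only [AddMonoidAlgebra.single_pow, one_pow, AddMonoidAlgebra.coeff_single, Finsupp.single_apply,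
      Finset.sum_boole, nsmul_eq_mul]
    rw [Finset.mem_image]
    constructor
    · rintro ⟨e, he, rfl⟩
      rw [show E.filter (fun e' => (q : ZMod p) * e' = q * e) = {e} from Finset.ext fun e' => by
        simp only [Finset.mem_filter, Finset.mem_singleton]
        exact ⟨fun hh => mul_left_cancel₀ hq0 hh.2, fun hh => by subst hh; exact ⟨he, rfl⟩⟩]
      simp
    · intro hne
      by_contra hno
      rw [Finset.filter_false_of_mem fun e he hh => hno ⟨e, he, hh⟩] at hne
      simp at hne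
  intro g hg x y hxy
  rw [hmem] at hxy ⊢
  rwa [hinv q g hg x y]

theorem Inv.mul_nat {G : Subgroup (Equiv.Perm (ZMod p))} :
    ∀ (m : ℕ), ¬ p ∣ m → ∀ E : Finset (ZMod p), Inv G E → Inv G (E.image fun e => (m : ZMod p) * e) := by
  intro m
  induction m using Nat.recOnMul with
  | zero => exact fun h => absurd (dvd_zero p) h
  | one => intro _ E hE; simpa using hE
  | prime q hq => exact fun hd E hE => hE.mul_prime hq fun e => hd (e ▸ dvd_rfl)
  | mul a b ha hb =>
    intro hd E hE
    have := ha (fun h => hd (h.trans (Dvd.intro _ rfl))) _ (hb (fun h => hd (h.trans (Dvd.intro_left _ rfl))) E hE)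
    rw [Finset.image_image] at this
    simpa [Function.comp_def, mul_assoc, Nat.cast_mul] using this

theorem Inv.mul_unit {G : Subgroup (Equiv.Perm (ZMod p))} {E : Finset (ZMod p)} (h : Inv G E) {c : ZMod p}
    (hc : c ≠ 0) : Inv G (E.image fun e => c * e) := by
  have := Inv.mul_nat c.val (fun hd => hc (by
    rw [← ZMod.natCast_zmod_val c, ZMod.natCast_eq_zero_iff]; exact hd)) E h
  rwa [ZMod.natCast_zmod_val] at this

/-- a group of affine maps is solvable -/
theorem solvable_of_affine (G : Subgroup (Equiv.Perm (ZMod p)))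
    (h : ∀ g ∈ G, ∃ a b : ZMod p, ∀ x, g x = a * x + b) : Group.IsSolvable G := by
  have hne : ∀ g : G, (g : Equiv.Perm (ZMod p)) 1 - (g : Equiv.Perm (ZMod p)) 0 ≠ 0 := fun g hh =>
    one_ne_zero ((g : Equiv.Perm (ZMod p)).injective (sub_eq_zero.1 hh))
  have haff : ∀ (g : G) x, (g : Equiv.Perm (ZMod p)) x =
      ((g : Equiv.Perm (ZMod p)) 1 - (g : Equiv.Perm (ZMod p)) 0) * x + (g : Equiv.Perm (ZMod p)) 0 := by
    intro g x
    obtain ⟨a, b, hab⟩ := h g g.2
    rw [hab, hab, hab]; ring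
  let ψ : G →* (ZMod p)ˣ :=
    { toFun := fun g => Units.mk0 _ (hne g)
      map_one' := Units.ext (by simp)
      map_mul' := fun g k => Units.ext (by
        show ((g : Equiv.Perm (ZMod p)) * k) 1 - ((g : Equiv.Perm (ZMod p)) * k) 0 =
          ((g : Equiv.Perm (ZMod p)) 1 - (g : Equiv.Perm (ZMod p)) 0) *
          ((k : Equiv.Perm (ZMod p)) 1 - (k : Equiv.Perm (ZMod p)) 0)
        rw [Equiv.Perm.mul_apply, Equiv.Perm.mul_apply, haff g ((k : Equiv.Perm (ZMod p)) 1),
          haff g ((k : Equiv.Perm (ZMod p)) 0)]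
        ring) }
  have hker : ∀ x y : ψ.ker, x * y = y * x := by
    intro x y
    have hk : ∀ z : ψ.ker, ∀ t, ((z : G) : Equiv.Perm (ZMod p)) t = t + ((z : G) : Equiv.Perm (ZMod p)) 0 := by
      intro z t
      have h1 : ((z : G) : Equiv.Perm (ZMod p)) 1 - ((z : G) : Equiv.Perm (ZMod p)) 0 = 1 :=
        congrArg Units.val (MonoidHom.mem_ker.1 z.2)
      rw [haff z t, h1, one_mul]
    apply Subtype.ext; apply Subtype.ext
    ext t
    show ((x : G) : Equiv.Perm (ZMod p)) (((y : G) : Equiv.Perm (ZMod p)) t) =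
      ((y : G) : Equiv.Perm (ZMod p)) (((x : G) : Equiv.Perm (ZMod p)) t)
    rw [hk x (((y : G) : Equiv.Perm (ZMod p)) t), hk y (((x : G) : Equiv.Perm (ZMod p)) t), hk y t, hk x t]
    ring
  haveI : Group.IsSolvable ψ.ker := isSolvable_of_comm hker
  exact solvable_of_ker_le_range ψ.ker.subtype ψ (by rw [Subgroup.range_subtype])

theorem burnside_zmod (G : Subgroup (Equiv.Perm (ZMod p))) (hp : p ≠ 2) (htr : Equiv.addRight (1 : ZMod p) ∈ G) :
    Group.IsSolvable G ∨ MulAction.IsMultiplyPretransitive G (ZMod p) 2 := by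
  classical
  have htrans : ∀ c : ZMod p, ∃ g ∈ G, ∀ x, g x = x + c := by
    intro c
    refine ⟨Equiv.addRight (1 : ZMod p) ^ c.val, G.pow_mem htr _, fun x => ?_⟩
    have : ∀ n : ℕ, (Equiv.addRight (1 : ZMod p) ^ n) x = x + n := by
      intro n
      induction n with
      | zero => simp
      | succ n ih => rw [pow_succ', Equiv.Perm.mul_apply, ih]; simp [add_assoc]
    rw [this, ZMod.natCast_zmod_val]
  let D : Finset (ZMod p) := Finset.univ.filter fun d => ∃ g ∈ G, g 0 = 0 ∧ g 1 = d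
  have hD : ∀ x y : ZMod p, y - x ∈ D ↔ ∃ g ∈ G, g 0 = x ∧ g 1 = y := by
    intro x y
    simp only [D, Finset.mem_filter, Finset.mem_univ, true_and]
    constructor
    · rintro ⟨g, hg, g0, g1⟩
      obtain ⟨t, ht, htx⟩ := htrans x
      exact ⟨t * g, G.mul_mem ht hg, by simp [g0, htx], by simp [g1, htx]⟩
    · rintro ⟨g, hg, g0, g1⟩
      obtain ⟨t, ht, htx⟩ := htrans (-x)
      exact ⟨t * g, G.mul_mem ht hg, by simp [g0, htx], by simp [g1, htx, sub_eq_add_neg]⟩
  have hDinv : Inv G D := fun g hg x y hxy => by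
    obtain ⟨k, hk, k0, k1⟩ := (hD x y).1 hxy
    exact (hD _ _).2 ⟨g * k, G.mul_mem hg hk, by simp [k0], by simp [k1]⟩
  have hD1 : (1 : ZMod p) ∈ D := by
    have := (hD 0 1).2 ⟨1, G.one_mem, rfl, rfl⟩
    rwa [sub_zero] at this
  by_cases hall : ∀ d : ZMod p, d ≠ 0 → d ∈ D
  · right
    rw [MulAction.is_two_pretransitive_iff]
    intro a b c d hab hcd
    obtain ⟨g, hg, g0, g1⟩ := (hD a b).1 (hall _ (sub_ne_zero.2 (Ne.symm hab)))
    obtain ⟨k, hk, k0, k1⟩ := (hD c d).1 (hall _ (sub_ne_zero.2 (Ne.symm hcd)))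
    refine ⟨⟨k * g⁻¹, G.mul_mem hk (G.inv_mem hg)⟩, ?_, ?_⟩
    · show (k * g⁻¹) a = c
      rw [← g0, Equiv.Perm.mul_apply, Equiv.Perm.inv_def, Equiv.symm_apply_apply, k0]
    · show (k * g⁻¹) b = d
      rw [← g1, Equiv.Perm.mul_apply, Equiv.Perm.inv_def, Equiv.symm_apply_apply, k1]
  left
  have hD0 : (0 : ZMod p) ∉ D := fun h => by
    obtain ⟨g, -, g0, g1⟩ := Finset.mem_filter.1 h |>.2
    exact zero_ne_one (g.injective (g0.trans g1.symm))
  obtain ⟨m, hm⟩ := (Fact.out : p.Prime).odd_of_ne_two hp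
  obtain ⟨E, hEinv, hE1, hEcard⟩ : ∃ E : Finset (ZMod p), Inv G E ∧ (1 : ZMod p) ∈ E ∧ E.card ≤ m := by
    by_cases hsm : D.card ≤ m
    · exact ⟨D, hDinv, hD1, hsm⟩
    push Not at hall
    obtain ⟨e, he0, heD⟩ := hall
    let C := (Finset.univ.erase (0 : ZMod p)) \ D
    have hCinv : Inv G C := fun g hg x y hxy => by
      simp only [C, Finset.mem_sdiff, Finset.mem_erase, Finset.mem_univ, and_true] at hxy ⊢
      exact ⟨fun hh => hxy.1 (sub_eq_zero.2 (g.injective (sub_eq_zero.1 hh))), fun hh => hxy.2 ((hDinv.iff hg x y).1 hh)⟩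
    have heC : e ∈ C := by simp [C, he0, heD]
    refine ⟨_, hCinv.mul_unit (inv_ne_zero he0), ?_, ?_⟩
    · exact Finset.mem_image.2 ⟨e, heC, inv_mul_cancel₀ he0⟩
    · refine Finset.card_image_le.trans ?_
      have hc : C.card + D.card = 2 * m := by
        rw [Finset.card_sdiff_add_card_eq_card (fun d hd => by simp [ne_of_mem_of_not_mem hd hD0]),
          Finset.card_erase_of_mem (Finset.mem_univ _), Finset.card_univ, ZMod.card]
        omega
      omega
  refine solvable_of_affine G fun g hg => CfsgLib.Slopes.affine_of_few_slopes hp (S := E) (by omega) fun x y hxy => ?_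
  have hd : x - y ≠ 0 := sub_ne_zero.2 hxy
  have := hEinv.mul_unit hd g hg y x (Finset.mem_image.2 ⟨1, hE1, mul_one _⟩)
  obtain ⟨e, he, hee⟩ := Finset.mem_image.1 this
  rwa [← hee, mul_comm, mul_div_assoc, div_self hd, mul_one]

theorem burnside {α : Type*} [Fintype α] [DecidableEq α] (hα : (Fintype.card α).Prime) (G : Subgroup (Equiv.Perm α))
    [MulAction.IsPretransitive G α] : Group.IsSolvable G ∨ MulAction.IsMultiplyPretransitive G α 2 := by
  classical
  set q := Fintype.card α with hqdef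
  haveI : Fact q.Prime := ⟨hα⟩
  by_cases h2 : q = 2
  · right
    rw [MulAction.is_two_pretransitive_iff]
    intro a b c d hab hcd
    obtain ⟨g, hg⟩ := MulAction.exists_smul_eq G a c
    refine ⟨g, hg, ?_⟩
    by_contra hne
    have hinj : g • b ≠ c := fun h => hab (smul_left_cancel g (hg.trans h.symm))
    have : ({c, d, g • b} : Finset α).card ≤ 2 := h2 ▸ Finset.card_le_univ _
    rw [Finset.card_insert_of_notMem (by simp [hcd, Ne.symm hinj]), Finset.card_pair (Ne.symm hne)] at this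
    omega
  obtain ⟨a⟩ : Nonempty α := Fintype.card_pos_iff.1 hα.pos
  have hdvd : q ∣ Nat.card G := by
    have h := MulAction.index_stabilizer_of_transitive G (x := a)
    rw [Nat.card_eq_fintype_card] at h
    rw [hqdef, ← h]
    exact Subgroup.index_dvd_card _
  obtain ⟨σ, hσ⟩ := exists_prime_orderOf_dvd_card' q hdvd
  have hσ' : orderOf (σ : Equiv.Perm α) = q := by rw [Subgroup.orderOf_coe, hσ]
  have hcyc : (σ : Equiv.Perm α).IsCycle :=
    Equiv.Perm.isCycle_of_prime_order'' (by rw [← hqdef]; exact hα) (by rw [hσ', hqdef])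
  have hfull : (σ : Equiv.Perm α).support = Finset.univ := by
    apply Finset.eq_univ_of_card
    rw [← hcyc.orderOf, hσ', hqdef]
  let e0 : ZMod q → α := fun i => ((σ : Equiv.Perm α) ^ i.val) a
  have hmod : ∀ n : ℕ, ((σ : Equiv.Perm α) ^ n) a = e0 (n : ZMod q) := by
    intro n
    show _ = ((σ : Equiv.Perm α) ^ (n : ZMod q).val) a
    rw [ZMod.val_natCast, ← hσ', pow_mod_orderOf]
  have hsurj : Function.Surjective e0 := fun b => by
    have hs : ∀ z : α, (σ : Equiv.Perm α) z ≠ z := fun z => Equiv.Perm.mem_support.1 (hfull ▸ Finset.mem_univ z)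
    obtain ⟨i, hi⟩ := hcyc.exists_pow_eq (hs a) (hs b)
    exact ⟨i, (hmod i).symm.trans hi⟩
  let e : ZMod q ≃ α := Equiv.ofBijective e0
    ((Fintype.bijective_iff_surjective_and_card e0).2 ⟨hsurj, by rw [ZMod.card]⟩)
  have hstep : ∀ i : ZMod q, (σ : Equiv.Perm α) (e i) = e (i + 1) := by
    intro i
    show (σ : Equiv.Perm α) (((σ : Equiv.Perm α) ^ i.val) a) = e0 (i + 1)
    rw [← Equiv.Perm.mul_apply, ← pow_succ', hmod, Nat.cast_add, ZMod.natCast_zmod_val, Nat.cast_one]
  let c : Equiv.Perm α ≃* Equiv.Perm (ZMod q) := e.symm.permCongrHom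
  have hc : ∀ (g : Equiv.Perm α) x, c g x = e.symm (g (e x)) := fun g x => rfl
  let G' := G.map c.toMonoidHom
  have htr : Equiv.addRight (1 : ZMod q) ∈ G' := ⟨σ, σ.2, Equiv.ext fun x => by
    show c σ x = _
    rw [hc, hstep, Equiv.symm_apply_apply]; rfl⟩
  rcases burnside_zmod G' h2 htr with h | h
  · haveI : Group.IsSolvable ↥(G.map (c : Equiv.Perm α →* Equiv.Perm (ZMod q))) := h
    exact Or.inl (Group.isSolvable_of_isSolvable_injective (f := (c.subgroupMap G).toMonoidHom) (c.subgroupMap G).injective)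
  · right
    rw [MulAction.is_two_pretransitive_iff] at h ⊢
    intro x y z w hxy hzw
    obtain ⟨⟨g, k, hk, rfl⟩, g1, g2⟩ := h (e.symm.injective.ne hxy) (e.symm.injective.ne hzw)
    have h1 : e.symm (k (e (e.symm x))) = e.symm z := g1
    have h2' : e.symm (k (e (e.symm y))) = e.symm w := g2
    refine ⟨⟨k, hk⟩, ?_, ?_⟩
    · rw [Equiv.apply_symm_apply] at h1; exact e.symm.injective h1
    · rw [Equiv.apply_symm_apply] at h2'; exact e.symm.injective h2'

end CfsgLib.Perm.BurnsidePrime
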