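import Mathlib

/-! Gleason's lemma for actions. -/

universe u v

namespace CfsgLib.Perm

open MulAction

/-- Gleason's lemma, transitive case. -/
theorem gleason_transitive {p : ℕ} (hp : p.Prime) {k : ℕ} {G : Type u} [Group G] {α : Type v}
    [Finite α] [MulAction G α] (hk : k + 1 < Nat.card α)
    (h : ∀ s : Finset α, s.card = k + 1 →
      ∃ P : Subgroup G, IsPGroup p P ∧ fixedPoints P α = (s : Set α)) :
    IsPretransitive G α := by
  classical
  haveI := Fintype.ofFinite α
  haveI := Fact.mk hp
  refine ⟨fun a b => ?_⟩
  by_contra hb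
  have hbΔ : b ∉ orbit G a := fun h => hb h
  have key : ∀ s : Finset α, s.card = k + 1 →
      Nat.card (orbit G a) ≡ (s.filter (· ∈ orbit G a)).card [MOD p] := by
    intro s hs
    obtain ⟨P, hP, hfix⟩ := h s hs
    refine (hP.card_modEq_card_fixedPoints (orbit G a)).trans ?_
    have e : fixedPoints P (orbit G a) ≃ (s.filter (· ∈ orbit G a) : Finset α) :=
      { toFun := fun x => ⟨(x.1 : α), Finset.mem_filter.2
          ⟨by
            have h1 : (x.1 : α) ∈ fixedPoints P α := fun g => congrArg Subtype.val (x.2 g)
            rw [hfix] at h1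
            exact h1, x.1.2⟩⟩
        invFun := fun x => ⟨⟨x.1, (Finset.mem_filter.1 x.2).2⟩, fun g => Subtype.ext (by
          have h1 : (x.1 : α) ∈ fixedPoints P α := by
            rw [hfix]
            exact (Finset.mem_filter.1 x.2).1
          exact h1 g)⟩
        left_inv := fun _ => rfl
        right_inv := fun _ => rfl }
    rw [Nat.card_congr e, Nat.card_eq_fintype_card, Fintype.card_coe]
  obtain ⟨s, hsa, hss, hs⟩ := Finset.exists_subsuperset_card_eq
    (s := ({a} : Finset α)) (t := Finset.univ.erase b)
    (n := k + 1)
    (by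
      intro x hx
      rw [Finset.mem_singleton] at hx
      subst hx
      simp only [Finset.mem_erase, Finset.mem_univ, and_true]
      exact fun e => hbΔ (e ▸ mem_orbit_self x))
    (by simp)
    (by
      rw [Finset.card_erase_of_mem (Finset.mem_univ _), Finset.card_univ,
        ← Nat.card_eq_fintype_card]
      omega)
  have has : a ∈ s := hsa (Finset.mem_singleton_self a)
  have hbs : b ∉ s := fun h => (Finset.mem_erase.1 (hss h)).1 rfl
  have h1 := key s hs
  have h2 := key (insert b (s.erase a)) (by
    rw [Finset.card_insert_of_notMem (fun h => hbs (Finset.mem_of_mem_erase h)),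
      Finset.card_erase_of_mem has, hs]
    omega)
  rw [Finset.filter_insert, if_neg hbΔ, Finset.filter_erase,
    Finset.card_erase_of_mem (Finset.mem_filter.2 ⟨has, mem_orbit_self a⟩)] at h2
  have h3 := h1.symm.trans h2
  have hpos : 0 < (s.filter (· ∈ orbit G a)).card :=
    Finset.card_pos.2 ⟨a, Finset.mem_filter.2 ⟨has, mem_orbit_self a⟩⟩
  have h4 := (Nat.modEq_iff_dvd' (Nat.sub_le _ _)).1 h3.symm
  rw [Nat.sub_sub_self hpos] at h4
  exact hp.not_dvd_one h4

/-- Gleason's lemma: if every `k`-subset is the exact fixed-point set of some `p`-subgroup and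
`k < |α|`, then the action is `k`-fold transitive. -/
theorem gleason {p : ℕ} (hp : p.Prime) :
    ∀ (k : ℕ) {G : Type u} [Group G] {α : Type v} [Finite α] [MulAction G α],
      k < Nat.card α →
      (∀ s : Finset α, s.card = k →
        ∃ P : Subgroup G, IsPGroup p P ∧ fixedPoints P α = (s : Set α)) →
      IsMultiplyPretransitive G α k := by
  intro k
  induction k with
  | zero => intros; exact is_zero_pretransitive
  | succ k ih =>
    intro G _ α _ _ hk h
    classical
    haveI := gleason_transitive hp hk h
    haveI : Nonempty α := Nat.card_pos_iff.1 (by omega) |>.1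
    obtain ⟨a⟩ := ‹Nonempty α›
    rw [SubMulAction.ofStabilizer.isMultiplyPretransitive (a := a)]
    refine ih ?_ ?_
    · rw [SubMulAction.nat_card_ofStabilizer_eq]
      omega
    · intro t ht
      let s : Finset α := insert a (t.map (Function.Embedding.subtype _))
      have hat : a ∉ t.map (Function.Embedding.subtype _) := by
        simp only [Finset.mem_map, not_exists, not_and]
        intro x _ hx
        exact x.2 hx
      obtain ⟨P, hP, hfix⟩ := h s (by
        rw [Finset.card_insert_of_notMem hat, Finset.card_map, ht])
      have hPa : P ≤ stabilizer G a := fun g hg => by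
        have h1 : a ∈ fixedPoints P α := by
          rw [hfix]
          exact Finset.mem_insert_self _ _
        exact h1 ⟨g, hg⟩
      refine ⟨P.subgroupOf (stabilizer G a),
        hP.of_equiv (Subgroup.subgroupOfEquivOfLe hPa).symm, ?_⟩
      ext x
      constructor
      · intro hx
        have h1 : (x : α) ∈ fixedPoints P α := fun g =>
          congrArg Subtype.val (hx ⟨⟨g.1, hPa g.2⟩, g.2⟩)
        rw [hfix] at h1
        rcases Finset.mem_insert.1 h1 with h2 | h2
        · exact absurd h2 x.2
        · obtain ⟨y, hy, hyx⟩ := Finset.mem_map.1 h2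
          rw [← Subtype.ext (a1 := y) (a2 := x) hyx]
          exact hy
      · intro hx g
        have h1 : (x : α) ∈ fixedPoints P α := by
          rw [hfix]
          exact Finset.mem_insert_of_mem (Finset.mem_map.2 ⟨x, hx, rfl⟩)
        exact Subtype.ext (h1 ⟨g.1.1, g.2⟩)

end CfsgLib.Perm
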