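import Mathlib
import Cfsg.Agent.Lib.Chars.Central

/-! The action of invariant matrices of a transitive action on a representation. -/

set_option autoImplicit false

namespace CfsgLib.Perm.Hecke

universe u v

variable {G : Type u} [Group G] [Fintype G] {Ω : Type v} [Fintype Ω] [DecidableEq Ω] [MulAction G Ω]
  [MulAction.IsPretransitive G Ω] {V : Type*} [AddCommGroup V] [Module ℂ V] (ρ : Representation ℂ G V) (a : Ω)

/-- A matrix invariant under the action. -/
def Invariant (G : Type u) {Ω : Type v} [Group G] [MulAction G Ω] (M : Matrix Ω Ω ℂ) : Prop :=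
  ∀ (g : G) (x y : Ω), M (g • x) (g • y) = M x y

/-- The operator attached to a matrix. -/
noncomputable def op (M : Matrix Ω Ω ℂ) : Module.End ℂ V :=
  (Nat.card (MulAction.stabilizer G a) : ℂ)⁻¹ • ∑ g : G, M (g • a) a • ρ g

theorem sum_smul_eq (F : Ω → ℂ) :
    ∑ g : G, F (g • a) = (Nat.card (MulAction.stabilizer G a) : ℂ) * ∑ x, F x := by
  classical
  rw [← Finset.sum_fiberwise Finset.univ (fun g : G => g • a), Finset.mul_sum]
  refine Finset.sum_congr rfl fun x _ => ?_
  rw [Finset.sum_congr rfl (g := fun _ => F x) (fun g hg => by rw [(Finset.mem_filter.1 hg).2]),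
    Finset.sum_const, nsmul_eq_mul]
  congr 2
  obtain ⟨t, ht⟩ := MulAction.exists_smul_eq G a x
  rw [← Fintype.card_subtype, ← Nat.card_eq_fintype_card]
  refine Nat.card_congr ((Equiv.mulLeft t⁻¹).subtypeEquiv fun g => ?_)
  show g • a = x ↔ t⁻¹ * g ∈ MulAction.stabilizer G a
  rw [MulAction.mem_stabilizer_iff, mul_smul, inv_smul_eq_iff, ht]

theorem op_mul (M N : Matrix Ω Ω ℂ) (hN : Invariant G N) :
    op ρ a M * op ρ a N = op ρ a (N * M) := by
  classical
  set c := (Nat.card (MulAction.stabilizer G a) : ℂ) with hc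
  have hc0 : c ≠ 0 := Nat.cast_ne_zero.2 Nat.card_pos.ne'
  have h1 : (∑ g : G, M (g • a) a • ρ g) * (∑ h : G, N (h • a) a • ρ h) =
      c • ∑ k : G, (N * M) (k • a) a • ρ k := by
    rw [Finset.sum_mul_sum]
    have h2 : ∀ g : G, ∑ h : G, (M (g • a) a • ρ g) * (N (h • a) a • ρ h) =
        ∑ k : G, (M (g • a) a * N (k • a) (g • a)) • ρ k := by
      intro g
      refine Fintype.sum_equiv (Equiv.mulLeft g) _ _ fun h => ?_
      show _ = (M (g • a) a * N ((g * h) • a) (g • a)) • ρ (g * h)
      rw [mul_smul g h a, hN, map_mul, smul_mul_smul_comm]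
    rw [Finset.sum_congr rfl fun g _ => h2 g, Finset.sum_comm, Finset.smul_sum]
    refine Finset.sum_congr rfl fun k _ => ?_
    rw [← Finset.sum_smul, smul_smul, sum_smul_eq a (fun x => M x a * N (k • a) x), Matrix.mul_apply, ← hc]
    congr 2
    exact Finset.sum_congr rfl fun x _ => mul_comm _ _
  rw [op, op, op, smul_mul_smul_comm, h1, smul_smul, mul_assoc, inv_mul_cancel₀ hc0, mul_one]

theorem op_pow (M : Matrix Ω Ω ℂ) (hM : Invariant G M) (m : ℕ) :
    op ρ a (M ^ (m + 1)) = op ρ a M ^ (m + 1) := by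
  induction m with
  | zero => simp
  | succ m ih => rw [pow_succ' M (m + 1), ← op_mul ρ a _ _ hM, ih, ← pow_succ]

theorem op_sum {ι : Type*} (s : Finset ι) (c : ι → ℂ) (M : ι → Matrix Ω Ω ℂ) :
    op ρ a (∑ i ∈ s, c i • M i) = ∑ i ∈ s, c i • op ρ a (M i) := by
  simp only [op, Finset.smul_sum, Matrix.sum_apply, Matrix.smul_apply, Finset.sum_smul, smul_smul, smul_eq_mul]
  rw [Finset.sum_comm]
  refine Finset.sum_congr rfl fun i _ => Finset.sum_congr rfl fun g _ => ?_
  congr 1
  ring

theorem trace_op [FiniteDimensional ℂ V] (M : Matrix Ω Ω ℂ) :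
    LinearMap.trace ℂ V (op ρ a M) = (Nat.card (MulAction.stabilizer G a) : ℂ)⁻¹ *
      ∑ g : G, M (g • a) a * ρ.character g := by
  simp [op, map_sum, Representation.character]

/-- Eigenvalues, hence traces, of operators attached to integer invariant matrices are integral. -/
theorem isIntegral_trace [FiniteDimensional ℂ V] (A : Matrix Ω Ω ℤ)
    (hA : Invariant G (A.map (fun z => (z : ℂ)))) :
    IsIntegral ℤ (LinearMap.trace ℂ V (op ρ a (A.map (fun z => (z : ℂ))))) := by
  classical
  set M := A.map (fun z => (z : ℂ)) with hM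
  set T := op ρ a M with hT
  set q := A.charpoly.map (Int.castRingHom ℂ) with hq
  have hMc : M.charpoly = q := Matrix.charpoly_map A (Int.castRingHom ℂ)
  have hqT : T * Polynomial.aeval T q = 0 := by
    have h0 : Polynomial.aeval M q = 0 := hMc ▸ Matrix.aeval_self_charpoly M
    rw [Polynomial.aeval_eq_sum_range] at h0 ⊢
    rw [Finset.mul_sum]
    calc ∑ i ∈ Finset.range (q.natDegree + 1), T * (q.coeff i • T ^ i)
        = ∑ i ∈ Finset.range (q.natDegree + 1), q.coeff i • op ρ a (M ^ (i + 1)) :=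
          Finset.sum_congr rfl fun i _ => by rw [mul_smul_comm, ← pow_succ', op_pow ρ a M hA]
      _ = op ρ a (∑ i ∈ Finset.range (q.natDegree + 1), q.coeff i • M ^ (i + 1)) :=
          (op_sum ρ a _ _ _).symm
      _ = op ρ a (M * 0) := by
          rw [← h0, Finset.mul_sum]
          congr 1
          exact Finset.sum_congr rfl fun i _ => by rw [mul_smul_comm, pow_succ']
      _ = 0 := by simp [op]
  have hroot : ∀ μ : ℂ, μ ∈ (LinearMap.charpoly T).roots → IsIntegral ℤ μ := by
    intro μ hμ
    have hev : Module.End.HasEigenvalue T μ :=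
      (Module.End.hasEigenvalue_iff_isRoot_charpoly T μ).2 (Polynomial.isRoot_of_mem_roots hμ)
    obtain ⟨v, hv⟩ := hev.exists_hasEigenvector
    refine ⟨Polynomial.X * A.charpoly, Polynomial.monic_X.mul (Matrix.charpoly_monic A), ?_⟩
    have h1 := Module.End.aeval_apply_of_hasEigenvector (p := Polynomial.X * q) hv
    rw [map_mul, Polynomial.aeval_X, hqT, LinearMap.zero_apply, eq_comm, smul_eq_zero] at h1
    have h2 := h1.resolve_right hv.2
    rw [← Polynomial.eval_map, Polynomial.map_mul, Polynomial.map_X]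
    exact h2
  rw [Module.End.trace_eq_sum_roots_charpoly_of_splits (IsAlgClosed.splits _)]
  exact IsIntegral.multiset_sum hroot

end CfsgLib.Perm.Hecke
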