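import Mathlib

/-! A `p`-group acting linearly in characteristic `p` has nonzero fixed vectors. -/

namespace CfsgLib.Perm.ModularFixed

theorem exists_fixed {P : Type*} [Group P] [Finite P] {p : ℕ} [Fact p.Prime] (hP : IsPGroup p P)
    {K : Type*} [Field K] [CharP K p] {V : Type*} [AddCommGroup V] [Module K V]
    (ρ : P →* (V →ₗ[K] V)) (W : Submodule K V) (hW : W ≠ ⊥) (hinv : ∀ g, ∀ w ∈ W, ρ g w ∈ W) :
    ∃ w ∈ W, w ≠ 0 ∧ ∀ g, ρ g w = w := by
  classical
  haveI := Fintype.ofFinite P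
  obtain ⟨v, hvW, hv0⟩ := (Submodule.ne_bot_iff W).1 hW
  -- the additive group generated by the orbit of `v`, as the image of `(ZMod p)^P`
  let cast : ZMod p →+* K := ZMod.castHom dvd_rfl K
  let Φ : (P → ZMod p) → V := fun e => ∑ g, cast (e g) • ρ g v
  let S : Set V := Set.range Φ
  haveI : Finite S := Set.Finite.to_subtype (Set.finite_range Φ)
  have hmul : ∀ h g, ρ h (ρ g v) = ρ (h * g) v := fun h g => by rw [map_mul, Module.End.mul_apply]
  have hstable : ∀ h, ∀ x ∈ S, ρ h x ∈ S := by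
    rintro h _ ⟨e, rfl⟩
    refine ⟨fun g => e (h⁻¹ * g), ?_⟩
    simp only [Φ, map_sum, map_smul, hmul]
    exact (Fintype.sum_equiv (Equiv.mulLeft h) _ _ (fun g => by simp)).symm
  letI : MulAction P S :=
    { smul := fun h x => ⟨ρ h x, hstable h x x.2⟩
      one_smul := fun x => Subtype.ext (by show ρ 1 (x : V) = x; rw [map_one]; rfl)
      mul_smul := fun a b x => Subtype.ext (by show ρ (a * b) (x : V) = ρ a (ρ b x); rw [map_mul]; rfl) }
  have h0 : (0 : V) ∈ S := ⟨0, by simp [Φ]⟩
  have hzero : (⟨0, h0⟩ : S) ∈ MulAction.fixedPoints P S := fun h => Subtype.ext (map_zero (ρ h))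
  -- `S` is an elementary abelian group of order a power of `p`, nontrivial
  let A : AddSubgroup V :=
    { carrier := S
      zero_mem' := h0
      add_mem' := by
        rintro _ _ ⟨e, rfl⟩ ⟨e', rfl⟩
        exact ⟨e + e', by simp [Φ, add_smul, Finset.sum_add_distrib]⟩
      neg_mem' := by
        rintro _ ⟨e, rfl⟩
        exact ⟨-e, by simp [Φ]⟩ }
  have hv : v ∈ A := ⟨Pi.single 1 1, by
    simp [Φ, Pi.single_apply, apply_ite, ite_smul, map_one]⟩
  haveI : Finite A := inferInstanceAs (Finite S)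
  have hord : addOrderOf (⟨v, hv⟩ : A) = p := by
    refine addOrderOf_eq_prime ?_ fun h => hv0 (congrArg Subtype.val h)
    apply Subtype.ext
    show p • v = 0
    rw [← Nat.cast_smul_eq_nsmul K, CharP.cast_eq_zero, zero_smul]
  have hdvd : p ∣ Nat.card S := hord ▸ (addOrderOf_dvd_natCard (⟨v, hv⟩ : A))
  obtain ⟨x, hx, hne⟩ := hP.exists_fixed_point_of_prime_dvd_card_of_fixed_point S hdvd hzero
  refine ⟨x, ?_, fun h => hne (Subtype.ext h.symm), fun g => congrArg Subtype.val (hx g)⟩
  obtain ⟨e, he⟩ := x.2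
  rw [← he]
  exact Submodule.sum_mem _ fun g _ => Submodule.smul_mem _ _ (hinv g v hvW)

/-- a Sylow subgroup is transitive when the degree is a power of `p` -/
theorem sylow_transitive {G : Type*} [Group G] [Finite G] {p f : ℕ} [Fact p.Prime] {Ω : Type*} [Finite Ω]
    [MulAction G Ω] [MulAction.IsPretransitive G Ω] (hcard : Nat.card Ω = p ^ f) (P : Sylow p G) :
    MulAction.IsPretransitive (P : Subgroup G) Ω := by
  classical
  obtain ⟨a⟩ : Nonempty Ω := (Nat.card_pos_iff.1 (by rw [hcard]; exact pow_pos (Fact.out : p.Prime).pos f)).1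
  set A := MulAction.stabilizer G a
  have hA : A.index = p ^ f := by rw [MulAction.index_stabilizer_of_transitive, hcard]
  have hco : Nat.Coprime (p ^ f) (P : Subgroup G).index :=
    ((Fact.out : p.Prime).coprime_iff_not_dvd.2 P.not_dvd_index).pow_left f
  -- the index of `P ⊓ A` in `P` is divisible by `p ^ f`
  have h1 : p ^ f ∣ A.relIndex (P : Subgroup G) := by
    refine hco.dvd_of_dvd_mul_right ?_
    have h := Subgroup.relIndex_mul_index (inf_le_left : (P : Subgroup G) ⊓ A ≤ P)
    rw [Subgroup.inf_relIndex_left] at h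
    rw [h, ← Subgroup.relIndex_mul_index (inf_le_right : (P : Subgroup G) ⊓ A ≤ A), hA]
    exact Dvd.intro_left _ rfl
  have horb : Nat.card (MulAction.orbit (P : Subgroup G) a) = A.relIndex (P : Subgroup G) := by
    rw [Nat.card_congr (MulAction.orbitEquivQuotientStabilizer (P : Subgroup G) a)]
    show (MulAction.stabilizer (P : Subgroup G) a).index = _
    rw [Subgroup.relIndex]
    rfl
  have hpos : 0 < Nat.card (MulAction.orbit (P : Subgroup G) a) :=
    Nat.card_pos_iff.2 ⟨⟨⟨a, MulAction.mem_orbit_self a⟩⟩, inferInstance⟩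
  have huniv : MulAction.orbit (P : Subgroup G) a = Set.univ := by
    refine Set.eq_of_subset_of_ncard_le (Set.subset_univ _) ?_ (Set.toFinite _)
    rw [Set.ncard_univ, hcard, ← Nat.card_coe_set_eq, horb]
    exact Nat.le_of_dvd (horb ▸ hpos) h1
  refine ⟨fun x y => ?_⟩
  obtain ⟨g, hg⟩ := (huniv ▸ Set.mem_univ x : x ∈ MulAction.orbit (P : Subgroup G) a)
  obtain ⟨h, hh⟩ := (huniv ▸ Set.mem_univ y : y ∈ MulAction.orbit (P : Subgroup G) a)
  exact ⟨h * g⁻¹, by rw [mul_smul, ← hg, inv_smul_smul]; exact hh⟩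

end CfsgLib.Perm.ModularFixed
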