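import Mathlib
import Cfsg.Agent.Lib.Perm.BurnsidePrime

set_option autoImplicit false
set_option linter.style.haveILetI false

/-! Groups of prime degree, labelled by a full cycle. -/

namespace CfsgLib.Perm.PrimeDegree

/-- A transitive group of prime degree contains a full cycle; label the points by it. -/
theorem exists_cycle {α : Type*} [Fintype α] [DecidableEq α] {p : ℕ} [Fact p.Prime] (hα : Fintype.card α = p)
    (G : Subgroup (Equiv.Perm α)) [MulAction.IsPretransitive G α] :
    ∃ (e : ZMod p ≃ α) (σ : G), ∀ i, (σ : Equiv.Perm α) (e i) = e (i + 1) := by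
  classical
  have hp : p.Prime := Fact.out
  obtain ⟨a⟩ : Nonempty α := Fintype.card_pos_iff.1 (hα ▸ hp.pos)
  have hdvd : p ∣ Nat.card G := by
    have h := MulAction.index_stabilizer_of_transitive G (x := a)
    rw [Nat.card_eq_fintype_card, hα] at h
    rw [← h]
    exact Subgroup.index_dvd_card _
  obtain ⟨σ, hσ⟩ := exists_prime_orderOf_dvd_card' p hdvd
  have hσ' : orderOf (σ : Equiv.Perm α) = p := by rw [Subgroup.orderOf_coe, hσ]
  have hcyc : (σ : Equiv.Perm α).IsCycle :=
    Equiv.Perm.isCycle_of_prime_order'' (by rw [hα]; exact hp) (by rw [hσ', hα])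
  have hfull : (σ : Equiv.Perm α).support = Finset.univ := by
    apply Finset.eq_univ_of_card
    rw [← hcyc.orderOf, hσ', hα]
  let e0 : ZMod p → α := fun i => ((σ : Equiv.Perm α) ^ i.val) a
  have hmod : ∀ n : ℕ, ((σ : Equiv.Perm α) ^ n) a = e0 (n : ZMod p) := by
    intro n
    show _ = ((σ : Equiv.Perm α) ^ (n : ZMod p).val) a
    rw [ZMod.val_natCast, ← hσ', pow_mod_orderOf]
  have hsurj : Function.Surjective e0 := fun b => by
    have hs : ∀ z : α, (σ : Equiv.Perm α) z ≠ z := fun z => Equiv.Perm.mem_support.1 (hfull ▸ Finset.mem_univ z)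
    obtain ⟨i, hi⟩ := hcyc.exists_pow_eq (hs a) (hs b)
    exact ⟨i, (hmod i).symm.trans hi⟩
  refine ⟨Equiv.ofBijective e0 ((Fintype.bijective_iff_surjective_and_card e0).2 ⟨hsurj, by rw [ZMod.card, hα]⟩), σ, fun i => ?_⟩
  show (σ : Equiv.Perm α) (((σ : Equiv.Perm α) ^ i.val) a) = e0 (i + 1)
  rw [← Equiv.Perm.mul_apply, ← pow_succ', hmod, Nat.cast_add, ZMod.natCast_zmod_val, Nat.cast_one]

/-- The coset space of a subgroup of index `p` is labelled by the powers of the cycle. -/
theorem exists_pow_mul {α : Type*} [Fintype α] [DecidableEq α] {p : ℕ} [Fact p.Prime] (hα : Fintype.card α = p)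
    {G : Subgroup (Equiv.Perm α)} (σ : G) (hσ : orderOf σ = p) (H : Subgroup G) (hH : H.index = p) :
    (∀ g : G, ∃ i : ℕ, ∃ h ∈ H, g = σ ^ i * h) ∧ (∀ i : ℕ, σ ^ i ∈ H → p ∣ i) ∧ ¬ p ∣ Nat.card H := by
  classical
  have hp : p.Prime := Fact.out
  have hcop : ¬ p ∣ Nat.card H := by
    intro hd
    have h1 : Nat.card G ∣ p * (p - 1).factorial := by
      rw [Nat.mul_factorial_pred hp.ne_zero, ← hα, ← Fintype.card_perm, ← Nat.card_eq_fintype_card]
      exact Subgroup.card_subgroup_dvd_card G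
    rw [← H.card_mul_index, hH, mul_comm] at h1
    have := (hp.dvd_factorial).1 (hd.trans (Nat.dvd_of_mul_dvd_mul_left hp.pos h1))
    have := hp.two_le
    omega
  have hinj : ∀ i : ℕ, σ ^ i ∈ H → p ∣ i := by
    intro i hi
    by_contra hd
    have h2 : orderOf (⟨σ ^ i, hi⟩ : H) = p := by
      rw [← Subgroup.orderOf_coe]
      show orderOf (σ ^ i) = p
      rw [Nat.Coprime.orderOf_pow (by rw [hσ]; exact hp.coprime_iff_not_dvd.2 hd), hσ]
    exact hcop (h2 ▸ orderOf_dvd_natCard _)
  refine ⟨fun g => ?_, hinj, hcop⟩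
  let φ : Fin p → G ⧸ H := fun i => ((σ ^ (i : ℕ) : G) : G ⧸ H)
  have hφ : Function.Injective φ := by
    have key : ∀ a b : Fin p, (a : ℕ) ≤ b → φ a = φ b → a = b := by
      intro a b hab h
      have hm := QuotientGroup.eq.1 h
      rw [← Nat.add_sub_cancel' hab, pow_add, inv_mul_cancel_left] at hm
      rcases Nat.eq_zero_or_pos ((b : ℕ) - a) with h0 | h0
      · exact Fin.ext (by omega)
      · have := Nat.le_of_dvd h0 (hinj _ hm)
        have := b.isLt
        omega
    intro a b h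
    rcases le_total (a : ℕ) b with hab | hab
    · exact key a b hab h
    · exact (key b a hab h.symm).symm
  obtain ⟨i, hi⟩ := ((Nat.bijective_iff_injective_and_card φ).2 ⟨hφ, by rw [Nat.card_fin]; exact hH.symm⟩).2 (g : G ⧸ H)
  exact ⟨i, (σ ^ (i : ℕ))⁻¹ * g, QuotientGroup.eq.1 hi, by group⟩

end CfsgLib.Perm.PrimeDegree
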