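import Mathlib

/-! Data and checks for the regular subgroup of GL(2,59). -/

namespace CfsgLib.SharpFiftyNine

/-- Reduced quadruples standing for 2 by 2 matrices over `ZMod 59`. -/
abbrev Quad := ℕ × ℕ × ℕ × ℕ

def toM (x : Quad) : Matrix (Fin 2) (Fin 2) (ZMod 59) :=
  !![(x.1 : ZMod 59), (x.2.1 : ZMod 59); (x.2.2.1 : ZMod 59), (x.2.2.2 : ZMod 59)]

def mulQ (x y : Quad) : Quad :=
  ((x.1 * y.1 + x.2.1 * y.2.2.1) % 59, (x.1 * y.2.1 + x.2.1 * y.2.2.2) % 59,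
   (x.2.2.1 * y.1 + x.2.2.2 * y.2.2.1) % 59, (x.2.2.1 * y.2.1 + x.2.2.2 * y.2.2.2) % 59)

def qI : Quad := (1, 0, 0, 1)

def qA : Quad := (0, 58, 1, 0)

def qB : Quad := (9, 15, 49, 49)

def elems : List Quad := [(3, 7, 7, 56), (52, 3, 3, 7), (34, 17, 43, 25), (41, 14, 40, 18), (7, 56, 56, 52), (43, 25, 25, 42), (45, 41, 41, 40), (48, 40, 40, 10), (53, 21, 21, 5), (40, 18, 18, 45), (56, 52, 52, 3), (42, 34, 34, 43), (25, 42, 16, 34), (18, 45, 19, 41), (34, 43, 17, 25), (41, 40, 14, 18), (40, 10, 11, 19), (21, 5, 6, 38), (19, 48, 49, 40), (38, 53, 54, 21), (16, 34, 34, 17), (19, 41, 41, 14), (38, 30, 31, 54), (17, 25, 25, 16), (14, 18, 18, 19), (11, 19, 19, 49), (6, 38, 38, 54), (31, 54, 21, 29), (49, 40, 40, 11), (54, 21, 21, 6), (29, 38, 5, 31), (25, 28, 27, 35), (54, 29, 28, 38), (32, 25, 24, 28), (25, 16, 42, 34), (18, 19, 45, 41), (19, 49, 48, 40), (38, 54, 53, 21), (21, 29, 28, 5), (40, 11, 10, 19),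 (21, 6, 5, 38), (5, 31, 30, 21), (27, 35, 34, 31), (28, 38, 5, 30), (24, 28, 27, 34), (31, 25, 24, 27), (30, 54, 21, 28), (34, 32, 31, 24), (28, 5, 38, 30), (10, 19, 19, 48), (5, 38, 38, 53), (30, 21, 54, 28), (34, 31, 32, 24), (5, 30, 31, 21), (27, 34, 35, 31), (24, 27, 28, 34), (21, 28, 29, 5), (31, 24, 25, 27), (46, 11, 45, 39), (58, 55, 30, 1), (4, 36, 11, 55), (39, 14, 48, 46), (54, 28, 29, 38), (32, 24, 25, 28), (31, 21, 54, 29), (35, 31, 32, 25), (28, 34, 35, 32), (29, 5, 38, 31), (25, 27, 28, 35), (45, 39, 13, 48), (30, 1, 1, 4), (11, 55, 55, 23), (48, 46, 20, 45), (4, 58, 58, 30), (23, 4, 4, 11), (45, 13, 39, 48), (35, 32, 31, 25), (38, 31, 30, 54), (28, 35, 34, 32), (13, 48, 14, 20), (1, 4, 29, 58), (55, 23, 48, 4), (20, 45, 11, 13), (58, 30, 55, 1), (4, 11, 36, 55), (39, 48, 14, 46), (9, 49, 15, 49), (46, 45, 11, 39), (14, 20, 46, 11), (29, 58, 58, 55), (48, 4, 4, 36), (11, 13, 39, 14), (55,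 1, 1, 29), (36, 55, 55, 48), (14, 46, 20, 11), (15, 49, 50, 10), (11, 39, 13, 14), (10, 9, 10, 15), (49, 10, 44, 9), (1, 29, 4, 58), (55, 48, 23, 4), (20, 11, 45, 13), (50, 10, 44, 10), (13, 14, 48, 20), (10, 15, 49, 50), (44, 9, 10, 49), (49, 49, 50, 44), (44, 10, 9, 49), (48, 20, 46, 45), (49, 50, 49, 44), (10, 49, 15, 50), (50, 44, 10, 10), (0, 1, 58, 0), (49, 44, 10, 9), (15, 50, 49, 10), (10, 10, 9, 15), (58, 0, 0, 58), (9, 15, 49, 49), (0, 58, 1, 0), (1, 0, 0, 1)]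

def builds : List Quad → Bool
  | [] => true
  | x :: rest =>
    (x == qI || rest.any fun y => mulQ y qA == x || mulQ y qB == x) && builds rest

theorem elems_builds : builds elems = true := by decide +kernel

theorem qI_mem : qI ∈ elems := by decide +kernel

theorem elems_closed : ∀ x ∈ elems, mulQ x qA ∈ elems ∧ mulQ x qB ∈ elems := by decide +kernel

theorem elems_nodup : elems.Nodup := by decide +kernel

theorem elems_length : elems.length = 120 := rfl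

theorem elems_reduced : ∀ x ∈ elems, x.1 < 59 ∧ x.2.1 < 59 ∧ x.2.2.1 < 59 ∧ x.2.2.2 < 59 := by
  decide +kernel

theorem elems_eigen : ∀ x ∈ elems, ∀ i ∈ List.range 29,
    ((4 ^ i * x.1 + 58) * (4 ^ i * x.2.2.2 + 58) + 58 * (4 ^ i * x.2.1 * (4 ^ i * x.2.2.1))) % 59 = 0 →
      x = qI ∧ i = 0 := by
  decide +kernel

theorem elems_scalar : ∀ x ∈ elems, ∀ i ∈ List.range 29,
    x = (4 ^ i % 59, 0, 0, 4 ^ i % 59) → i = 0 := by
  decide +kernel

theorem toM_mulQ (x y : Quad) : toM (mulQ x y) = toM x * toM y := by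
  ext i j
  fin_cases i <;> fin_cases j <;> simp [toM, mulQ, Matrix.mul_apply, Fin.sum_univ_two]

theorem toM_qI : toM qI = 1 := by
  ext i j
  fin_cases i <;> fin_cases j <;> simp [toM, qI]

theorem toM_injOn {x y : Quad} (hx : x ∈ elems) (hy : y ∈ elems) (h : toM x = toM y) : x = y := by
  obtain ⟨a1, a2, a3, a4⟩ := elems_reduced x hx
  obtain ⟨b1, b2, b3, b4⟩ := elems_reduced y hy
  have e : ∀ {m n : ℕ}, m < 59 → n < 59 → (m : ZMod 59) = (n : ZMod 59) → m = n := by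
    intro m n hm hn hmn
    have := congrArg ZMod.val hmn
    rwa [ZMod.val_natCast_of_lt hm, ZMod.val_natCast_of_lt hn] at this
  have h00 := congrFun (congrFun h 0) 0
  have h01 := congrFun (congrFun h 0) 1
  have h10 := congrFun (congrFun h 1) 0
  have h11 := congrFun (congrFun h 1) 1
  exact Prod.ext (e a1 b1 h00) (Prod.ext (e a2 b2 h01) (Prod.ext (e a3 b3 h10) (e a4 b4 h11)))

end CfsgLib.SharpFiftyNine
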