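import Mathlib

set_option autoImplicit false
set_option linter.style.haveILetI false
set_option linter.unusedSectionVars false

/-! Sharply doubly transitive finite permutation groups (no Frobenius theorem). -/

namespace CfsgLib.Perm.SharpTwo

variable {α : Type*} [Fintype α] [DecidableEq α] {G : Subgroup (Equiv.Perm α)}

theorem eq_one (hsharp : ∀ x : Fin 2 ↪ α, MulAction.stabilizer G x = ⊥) {g : G} {a b : α}
    (hab : a ≠ b) (ha : g • a = a) (hb : g • b = b) : g = 1 := by
  let e : Fin 2 ↪ α := ⟨![a, b], by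
    intro i j hij
    fin_cases i <;> fin_cases j <;> simp_all⟩
  have : g ∈ MulAction.stabilizer G e := Function.Embedding.ext fun i => by
    show g • e i = e i
    fin_cases i <;> assumption
  rw [hsharp e] at this
  exact Subgroup.mem_bot.1 this

theorem eq_of_two (hsharp : ∀ x : Fin 2 ↪ α, MulAction.stabilizer G x = ⊥) {g h : G} {a b : α}
    (hab : a ≠ b) (ha : g • a = h • a) (hb : g • b = h • b) : g = h := by
  have := eq_one hsharp (g := h⁻¹ * g) hab (by rw [mul_smul, ha, inv_smul_smul]) (by rw [mul_smul, hb, inv_smul_smul])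
  exact (inv_mul_eq_one.1 this).symm

theorem card_stabilizer [MulAction.IsMultiplyPretransitive G α 2]
    (hsharp : ∀ x : Fin 2 ↪ α, MulAction.stabilizer G x = ⊥) (h2 : 2 ≤ Fintype.card α) (a : α) :
    Nat.card (MulAction.stabilizer G a) = Fintype.card α - 1 := by
  obtain ⟨b, hb⟩ : ∃ b, b ≠ a := Fintype.exists_ne_of_one_lt_card h2 a
  rw [Nat.card_congr (β := {x : α // x ≠ a})
    (Equiv.ofBijective (fun g : MulAction.stabilizer G a => (⟨(g : G) • b, fun h => hb
      (MulAction.injective (g : G) (show (g : G) • b = (g : G) • a from h.trans g.2.symm))⟩ : {x : α // x ≠ a})) ?_)]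
  · rw [Nat.card_eq_fintype_card, Fintype.card_subtype_compl, Fintype.card_subtype_eq]
  refine ⟨fun g h hgh => Subtype.ext (eq_of_two hsharp hb (congrArg Subtype.val hgh) (g.2.trans h.2.symm)), fun x => ?_⟩
  obtain ⟨g, g1, g2⟩ := (MulAction.is_two_pretransitive_iff (G := G) (α := α)).1 inferInstance (Ne.symm hb) (Ne.symm x.2)
  exact ⟨⟨g, g1⟩, Subtype.ext g2⟩

theorem card_group [MulAction.IsMultiplyPretransitive G α 2]
    (hsharp : ∀ x : Fin 2 ↪ α, MulAction.stabilizer G x = ⊥) (h2 : 2 ≤ Fintype.card α) :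
    Nat.card G = Fintype.card α * (Fintype.card α - 1) := by
  obtain ⟨a⟩ : Nonempty α := Fintype.card_pos_iff.1 (by omega)
  haveI : MulAction.IsPretransitive G α :=
    MulAction.isPretransitive_of_is_two_pretransitive (G := G) (α := α)
  rw [← (MulAction.stabilizer G a).card_mul_index, MulAction.index_stabilizer_of_transitive, card_stabilizer hsharp h2,
    Nat.card_eq_fintype_card, mul_comm]

/-- The fixed-point-free elements, together with the identity, form an elementary abelian regular normal subgroup. -/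
theorem exists_regular [MulAction.IsMultiplyPretransitive G α 2]
    (hsharp : ∀ x : Fin 2 ↪ α, MulAction.stabilizer G x = ⊥) (h2 : 2 ≤ Fintype.card α) :
    ∃ (p j : ℕ) (N : Subgroup G), p.Prime ∧ 1 ≤ j ∧ Fintype.card α = p ^ j ∧ Nat.card N = p ^ j ∧ N.Normal ∧
      (∀ g : G, g ∈ N ↔ g = 1 ∨ ∀ a : α, g • a ≠ a) ∧ (∀ x ∈ N, ∀ y ∈ N, x * y = y * x) ∧
      (∀ x ∈ N, x ^ p = 1) ∧ (∀ a : α, ∀ g ∈ N, g • a = a → g = 1) ∧ ∀ a b : α, ∃ g ∈ N, g • a = b := by
  classical
  set n := Fintype.card α with hn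
  have hG := card_group hsharp h2
  rw [← hn] at hG
  obtain ⟨a₀⟩ : Nonempty α := Fintype.card_pos_iff.1 (by omega)
  -- the fixed-point-free elements
  let F : Type _ := {g : G // ∀ a : α, g • a ≠ a}
  have hF : Nat.card F = n - 1 := by
    have e : (Σ a : α, {g : MulAction.stabilizer G a // g ≠ 1}) ≃ {g : G // g ≠ 1 ∧ ∃ a : α, g • a = a} :=
      Equiv.ofBijective (fun z => ⟨(z.2.1 : G), fun h => z.2.2 (Subtype.ext h), z.1, z.2.1.2⟩) <| by
        refine ⟨?_, ?_⟩
        · rintro ⟨a, ⟨⟨g, hg⟩, hg1⟩⟩ ⟨b, ⟨⟨h, hh⟩, hh1⟩⟩ e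
          have e' : g = h := congrArg Subtype.val e
          subst e'
          have hab : a = b := by
            by_contra hab
            exact hg1 (Subtype.ext (eq_one hsharp hab hg hh))
          subst hab
          rfl
        · rintro ⟨g, hg1, a, ha⟩
          exact ⟨⟨a, ⟨⟨g, ha⟩, fun h => hg1 (congrArg Subtype.val h)⟩⟩, rfl⟩
    have h1 := Nat.card_congr e
    rw [Nat.card_sigma] at h1
    have h3 : ∀ a : α, Nat.card {g : MulAction.stabilizer G a // g ≠ 1} = n - 2 := by
      intro a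
      rw [Nat.card_eq_fintype_card, Fintype.card_subtype_compl, Fintype.card_subtype_eq, ← Nat.card_eq_fintype_card,
        card_stabilizer hsharp h2]
      omega
    rw [Finset.sum_congr rfl fun a _ => h3 a, Finset.sum_const, Finset.card_univ, smul_eq_mul, ← hn] at h1
    have h4 : Nat.card {g : G // g ≠ 1 ∧ ∃ a : α, g • a = a} + Nat.card {g : G // g ≠ 1 ∧ ¬ ∃ a : α, g • a = a}
        = Nat.card {g : G // g ≠ 1} := by
      simp only [Nat.card_eq_fintype_card, Fintype.card_subtype]
      rw [← Finset.card_union_of_disjoint (Finset.disjoint_filter.2 fun g _ h h' => h'.2 h.2)]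
      congr 1
      ext g
      simp only [Finset.mem_union, Finset.mem_filter, Finset.mem_univ, true_and]
      tauto
    have h5 : Nat.card {g : G // g ≠ 1} = n * (n - 1) - 1 := by
      rw [Nat.card_eq_fintype_card, Fintype.card_subtype_compl, Fintype.card_subtype_eq, ← Nat.card_eq_fintype_card, hG]
    have h6 : Nat.card {g : G // g ≠ 1 ∧ ¬ ∃ a : α, g • a = a} = Nat.card F :=
      Nat.card_congr (Equiv.subtypeEquivRight fun g => ⟨fun h a ha => h.2 ⟨a, ha⟩, fun h =>
        ⟨fun h1 => h a₀ (by rw [h1, one_smul]), fun ⟨a, ha⟩ => h a ha⟩⟩)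
    rw [h5, h6, ← h1] at h4
    have h7 : n * (n - 1) = n * (n - 2) + n := by
      conv_rhs => arg 2; rw [← mul_one n]
      rw [← Nat.mul_add]; congr 1; omega
    omega
  obtain ⟨p, hp, hpn⟩ := Nat.exists_prime_and_dvd (show n ≠ 1 by omega)
  haveI : Fact p.Prime := ⟨hp⟩
  obtain ⟨x, hx⟩ := exists_prime_orderOf_dvd_card' (G := G) p (hG ▸ hpn.mul_right _)
  have hxF : ∀ a : α, x • a ≠ a := by
    intro a ha
    have hd := orderOf_dvd_natCard (⟨x, ha⟩ : MulAction.stabilizer G a)
    rw [← Subgroup.orderOf_coe, card_stabilizer hsharp h2, ← hn, show orderOf ((⟨x, ha⟩ : MulAction.stabilizer G a) : G) = p from hx] at hd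
    have := Nat.dvd_sub hpn hd
    rw [show n - (n - 1) = 1 by omega] at this
    exact hp.not_dvd_one this
  -- centralisers of fixed-point-free elements
  have hC : ∀ y : G, (∀ a : α, y • a ≠ a) → ∀ h : G, Commute h y → h = 1 ∨ ∀ a : α, h • a ≠ a := by
    intro y hy h hc
    refine or_iff_not_imp_right.2 fun hh => ?_
    push Not at hh
    obtain ⟨a, ha⟩ := hh
    exact eq_one hsharp (Ne.symm (hy a)) ha (by rw [← mul_smul, hc.eq, mul_smul, ha])
  have hsmall : ∀ y : G, (∀ a : α, y • a ≠ a) → Nat.card (Subgroup.centralizer ({y} : Set G)) ≤ n ∧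
      (Nat.card (Subgroup.centralizer ({y} : Set G)) = n → ∀ f : G, (∀ a : α, f • a ≠ a) → Commute f y) := by
    intro y hy
    set C := Subgroup.centralizer ({y} : Set G) with hCdef
    have hcm : ∀ c : C, Commute (c : G) y := fun c => (Subgroup.mem_centralizer_singleton_iff.1 c.2)
    let ι : {c : C // c ≠ 1} → F := fun c => ⟨(c.1 : G), (hC y hy _ (hcm c.1)).resolve_left fun h => c.2 (Subtype.ext h)⟩
    have hι : Function.Injective ι := fun c d h => Subtype.ext (Subtype.ext (congrArg Subtype.val h :))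
    have hc1 : Nat.card {c : C // c ≠ 1} = Nat.card C - 1 := by
      rw [Nat.card_eq_fintype_card, Fintype.card_subtype_compl, Fintype.card_subtype_eq, ← Nat.card_eq_fintype_card]
    have hpos : 0 < Nat.card C := Nat.card_pos
    refine ⟨?_, fun hCn f hf => ?_⟩
    · have := Nat.card_le_card_of_injective ι hι
      rw [hc1, hF] at this
      omega
    · obtain ⟨c, hc⟩ := ((Nat.bijective_iff_injective_and_card ι).2 ⟨hι, by rw [hc1, hF, hCn]⟩).2 ⟨f, hf⟩
      have := congrArg Subtype.val hc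
      exact (show ((c.1 : C) : G) = f from this) ▸ hcm c.1
  set C := Subgroup.centralizer ({x} : Set G) with hCdef
  have hconjF : ∀ g y : G, (∀ a : α, y • a ≠ a) → ∀ a : α, (g * y * g⁻¹) • a ≠ a := by
    intro g y hy a ha
    refine hy (g⁻¹ • a) ?_
    rw [mul_smul, mul_smul] at ha
    rw [eq_inv_smul_iff]
    exact ha
  let φ : G ⧸ C → F := Quotient.lift (fun g => (⟨g * x * g⁻¹, hconjF g x hxF⟩ : F)) fun g h hgh => by
    have hm := QuotientGroup.leftRel_apply.1 hgh
    have hc : Commute (g⁻¹ * h) x := Subgroup.mem_centralizer_singleton_iff.1 hm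
    apply Subtype.ext
    show g * x * g⁻¹ = h * x * h⁻¹
    calc g * x * g⁻¹ = g * (x * (g⁻¹ * h)) * h⁻¹ := by group
      _ = g * ((g⁻¹ * h) * x) * h⁻¹ := by rw [hc.eq]
      _ = h * x * h⁻¹ := by group
  have hφ : Function.Injective φ := by
    intro u v huv
    induction u using QuotientGroup.induction_on with | _ g => ?_
    induction v using QuotientGroup.induction_on with | _ h => ?_
    have e : g * x * g⁻¹ = h * x * h⁻¹ := congrArg Subtype.val huv
    refine QuotientGroup.eq.2 (Subgroup.mem_centralizer_singleton_iff.2 ?_)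
    calc g⁻¹ * h * x = g⁻¹ * (h * x * h⁻¹) * h := by group
      _ = g⁻¹ * (g * x * g⁻¹) * h := by rw [e]
      _ = x * (g⁻¹ * h) := by group
  have hidx : C.index ≤ n - 1 := hF ▸ Nat.card_le_card_of_injective φ hφ
  obtain ⟨hCn, hCidx⟩ : Nat.card C = n ∧ C.index = n - 1 := by
    have h1 := C.card_mul_index
    rw [hG] at h1
    obtain ⟨hle, -⟩ := hsmall x hxF
    have hmul : n * (n - 1) ≤ Nat.card C * (n - 1) := h1 ▸ Nat.mul_le_mul le_rfl hidx
    have : n ≤ Nat.card C := Nat.le_of_mul_le_mul_right hmul (by omega)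
    have hCn : Nat.card C = n := le_antisymm hle this
    rw [hCn] at h1
    exact ⟨hCn, Nat.eq_of_mul_eq_mul_left (by omega) h1⟩
  have hord : ∀ f : G, (∀ a : α, f • a ≠ a) → f ^ p = 1 ∧ Nat.card (Subgroup.centralizer ({f} : Set G)) = n := by
    intro f hf
    have hbij : Function.Bijective φ :=
      (Nat.bijective_iff_injective_and_card φ).2 ⟨hφ, by rw [hF]; exact hCidx⟩
    obtain ⟨u, hu⟩ := hbij.2 ⟨f, hf⟩
    induction u using QuotientGroup.induction_on with | _ g => ?_
    have e : g * x * g⁻¹ = f := congrArg Subtype.val hu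
    refine ⟨by rw [← e, conj_pow, ← hx, pow_orderOf_eq_one, mul_one, mul_inv_cancel], ?_⟩
    rw [← hCn, ← e]
    refine Nat.card_congr
      { toFun := fun c => ⟨g⁻¹ * (c : G) * g, Subgroup.mem_centralizer_singleton_iff.2 ?_⟩
        invFun := fun c => ⟨g * (c : G) * g⁻¹, Subgroup.mem_centralizer_singleton_iff.2 ?_⟩
        left_inv := fun c => Subtype.ext (by show g * (g⁻¹ * (c : G) * g) * g⁻¹ = (c : G); group)
        right_inv := fun c => Subtype.ext (by show g⁻¹ * (g * (c : G) * g⁻¹) * g = (c : G); group) }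
    · have hc := Subgroup.mem_centralizer_singleton_iff.1 c.2
      calc g⁻¹ * (c : G) * g * x = g⁻¹ * ((c : G) * (g * x * g⁻¹)) * g := by group
        _ = g⁻¹ * ((g * x * g⁻¹) * (c : G)) * g := by rw [hc]
        _ = x * (g⁻¹ * (c : G) * g) := by group
    · have hc := Subgroup.mem_centralizer_singleton_iff.1 c.2
      calc g * (c : G) * g⁻¹ * (g * x * g⁻¹) = g * ((c : G) * x) * g⁻¹ := by group
        _ = g * (x * (c : G)) * g⁻¹ := by rw [hc]
        _ = g * x * g⁻¹ * (g * (c : G) * g⁻¹) := by group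
  have hmem : ∀ g : G, g ∈ C ↔ g = 1 ∨ ∀ a : α, g • a ≠ a := by
    intro g
    refine ⟨fun hg => hC x hxF g (Subgroup.mem_centralizer_singleton_iff.1 hg), ?_⟩
    rintro (rfl | hg)
    · exact C.one_mem
    · exact Subgroup.mem_centralizer_singleton_iff.2 ((hsmall x hxF).2 hCn g hg)
  have hexp : ∀ g ∈ C, g ^ p = 1 := by
    intro g hg
    rcases (hmem g).1 hg with rfl | hg
    · exact one_pow p
    · exact (hord g hg).1
  have hP : IsPGroup p C := fun g => ⟨1, Subtype.ext (by rw [pow_one]; exact hexp g g.2)⟩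
  obtain ⟨j, hj⟩ := IsPGroup.iff_card.1 hP
  have hfree : ∀ a : α, ∀ g ∈ C, g • a = a → g = 1 := fun a g hg ha =>
    ((hmem g).1 hg).resolve_right fun h => h a ha
  refine ⟨p, j, C, hp, ?_, hCn ▸ hj, hj, ?_, hmem, ?_, hexp, hfree, fun a b => ?_⟩
  · rcases Nat.eq_zero_or_pos j with rfl | h
    · rw [hCn, pow_zero] at hj; omega
    · exact h
  · refine ⟨fun g hg k => ?_⟩
    rcases (hmem g).1 hg with rfl | hg
    · simp
    · exact (hmem _).2 (Or.inr (hconjF k g hg))
  · intro u hu v hv
    rcases (hmem v).1 hv with rfl | hv'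
    · simp
    rcases (hmem u).1 hu with rfl | hu'
    · simp
    exact ((hsmall v hv').2 (hord v hv').2 u hu').eq
  · have hbij : Function.Bijective (fun c : C => (c : G) • a) := by
      refine (Nat.bijective_iff_injective_and_card _).2 ⟨fun c d h => ?_, by rw [hCn, Nat.card_eq_fintype_card]⟩
      have := hfree a _ (C.mul_mem (C.inv_mem d.2) c.2) (by rw [mul_smul]; exact inv_smul_eq_iff.2 h)
      exact Subtype.ext (inv_mul_eq_one.1 this).symm
    obtain ⟨c, hc⟩ := hbij.2 b
    exact ⟨c, c.2, hc⟩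

end CfsgLib.Perm.SharpTwo
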